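import Cfsg.Agent.Lib.Helper9.AschU.Defs
import Cfsg.Agent.Lib.Helper43.PA.HermDecomp

set_option autoImplicit false

/-! # UO : orthonormal bases of unitary forms -/

namespace Cfsg.Agent.Lib.Helper70.AschU

open Cfsg Cfsg.Geo Matrix Cfsg.Agent.Lib.Helper13 Cfsg.Agent.Lib.Helper13.Asch
  Cfsg.Agent.Lib.Helper5.SUAsch Cfsg.Agent.Lib.Helper9.AschU
open scoped Kronecker MatrixGroups

variable {F : Type*} [Field F] [Fintype F] {n q : ℕ}

theorem uform_add_right (hF : Fintype.card F = q ^ 2) {m : ℕ}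
    {f₁ : (Fin m → F) → (Fin m → F) → F} (h₁ : IsUnitaryFormPow q f₁) (v x y : Fin m → F) :
    f₁ v (x + y) = f₁ v x + f₁ v y := by
  rw [h₁.herm v (x + y), h₁.add_left, add_pow_q hF, ← h₁.herm, ← h₁.herm]

omit [Fintype F] in
theorem uform_smul_right {m : ℕ}
    {f₁ : (Fin m → F) → (Fin m → F) → F} (h₁ : IsUnitaryFormPow q f₁) (c : F) (v x : Fin m → F) :
    f₁ v (c • x) = c ^ q * f₁ v x := by
  rw [h₁.herm v (c • x), h₁.smul_left, mul_pow, ← h₁.herm]

/-- the form as a sesquilinear map (semilinear in the first variable). -/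
noncomputable def uformB (hF : Fintype.card F = q ^ 2) {m : ℕ}
    {f₁ : (Fin m → F) → (Fin m → F) → F} (h₁ : IsUnitaryFormPow q f₁) :
    (Fin m → F) →ₛₗ[frobQ hF] (Fin m → F) →ₗ[F] F :=
  LinearMap.mk₂'ₛₗ (frobQ hF) (RingHom.id F) (fun x y => f₁ y x)
    (fun x x' y => uform_add_right hF h₁ y x x')
    (fun c x y => uform_smul_right h₁ c y x)
    (fun x y y' => h₁.add_left y y' x)
    (fun c x y => h₁.smul_left c y x)

theorem uformB_apply (hF : Fintype.card F = q ^ 2) {m : ℕ}
    {f₁ : (Fin m → F) → (Fin m → F) → F} (h₁ : IsUnitaryFormPow q f₁) (x y : Fin m → F) :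
    uformB hF h₁ x y = f₁ y x := rfl

theorem uformB_hform (hF : Fintype.card F = q ^ 2) {m : ℕ}
    {f₁ : (Fin m → F) → (Fin m → F) → F} (h₁ : IsUnitaryFormPow q f₁) :
    Cfsg.Agent.Lib.Helper94.U.HForm (frobQ hF) (uformB hF h₁) where
  ne_id := frobQ_ne_id hF
  invol := fun a => pow_q_pow_q hF a
  symm := fun x y => by
    rw [uformB_apply, uformB_apply, frobQ_apply, ← h₁.herm]
  nondeg := fun x hx => by
    by_contra hne
    obtain ⟨⟨y, hy⟩, -⟩ := h₁.nondegenerate x hne
    exact hy (hx y)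

/-- UO : orthonormal bases -/
theorem exists_orthonormal (hF : Fintype.card F = q ^ 2) {m : ℕ}
    (f₁ : (Fin m → F) → (Fin m → F) → F) (h₁ : IsUnitaryFormPow q f₁) :
    ∃ C : GL (Fin m) F, ∀ x y, f₁ ((C : Matrix (Fin m) (Fin m) F) *ᵥ x)
      ((C : Matrix (Fin m) (Fin m) F) *ᵥ y) = hermForm m F q x y := by
  classical
  obtain ⟨v, hv, -⟩ := Cfsg.Agent.Lib.Helper43.PA.exists_orthonormal (uformB_hform hF h₁) m
    (by simp)
  have hv' : ∀ i j, f₁ (v i) (v j) = if i = j then 1 else 0 := by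
    intro i j
    have := hv j i
    rw [uformB_apply] at this
    rw [this]
    simp only [eq_comm]
  let B := uformB hF h₁
  let P : Matrix (Fin m) (Fin m) F := (Matrix.of v)ᵀ
  have hPx : ∀ x : Fin m → F, P *ᵥ x = ∑ i, x i • v i := by
    intro x
    funext j
    simp [P, mulVec, dotProduct, Finset.sum_apply, mul_comm]
  have hform : ∀ x y, f₁ (P *ᵥ x) (P *ᵥ y) = hermForm m F q x y := by
    intro x y
    rw [← uformB_apply hF h₁, hPx, hPx, map_sum]
    simp only [map_sum, LinearMap.sum_apply, LinearMap.map_smulₛₗ, LinearMap.smul_apply, map_smul,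
      uformB_apply, hv', frobQ_apply, smul_eq_mul, hermForm]
    apply Finset.sum_congr rfl
    intro i _
    simp
  have hinj : Function.Injective P.mulVec := by
    rw [← Matrix.coe_mulVecLin, ← LinearMap.ker_eq_bot, LinearMap.ker_eq_bot']
    intro x hx
    rw [Matrix.mulVecLin_apply] at hx
    funext i
    have := hform x (Pi.single i 1)
    rw [hx] at this
    have h0 : f₁ 0 (P *ᵥ Pi.single i 1) = 0 := by
      have := h₁.smul_left 0 0 (P *ᵥ Pi.single i 1)
      simpa using this
    rw [h0] at this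
    have h2 : hermForm m F q x (Pi.single i 1) = x i := by
      have hq := two_le_of_card_sq hF
      simp only [hermForm]
      rw [Finset.sum_eq_single i]
      · simp
      · intro b _ hb
        rw [Pi.single_eq_of_ne hb, zero_pow (by omega), mul_zero]
      · simp
    rw [h2] at this
    simpa using this.symm
  have hPu : IsUnit P := Matrix.mulVec_injective_iff_isUnit.1 hinj
  exact ⟨hPu.unit, hform⟩

end Cfsg.Agent.Lib.Helper70.AschU
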