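import Cfsg.Agent.Lib.Helper9.AschU.Base
import Cfsg.Agent.Lib.Helper70.AschU.UO
import Cfsg.Agent.Lib.Helper63.Sp.W1

set_option autoImplicit false

/-! # U7t : the unitary form on a tensor power with adjoint-closed factors -/

namespace Cfsg.Agent.Lib.Helper70.AschU

open Cfsg Cfsg.Geo Matrix Cfsg.Agent.Lib.Helper13 Cfsg.Agent.Lib.Helper13.Asch
  Cfsg.Agent.Lib.Helper5.SUAsch Cfsg.Agent.Lib.Helper9.AschU
open Cfsg.Agent.Lib.Helper21.Asch
open scoped Kronecker MatrixGroups

variable {F : Type*} [Field F] [Fintype F] {n q : ℕ}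

theorem adj_stdT (hF : Fintype.card F = q ^ 2) {m t : ℕ} (i : Fin t)
    (X : Matrix (Fin m) (Fin m) F) : adj q (stdT i X) = stdT i (adj q X) := by
  have hq := two_le_of_card_sq hF
  ext x y
  simp only [stdT, adj]
  by_cases h : ∀ j, j ≠ i → x j = y j
  · rw [if_pos h, if_pos (fun j hj => (h j hj).symm)]
  · rw [if_neg h, if_neg (fun h' => h (fun j hj => (h' j hj).symm)), zero_pow (by omega)]

omit [Fintype F] in
theorem adj_pureT {m t : ℕ} (f : Fin t → Matrix (Fin m) (Fin m) F) :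
    adj q (pureT f) = pureT (fun i => adj q (f i)) := by
  ext x y
  simp only [adj, pureT_apply, Finset.prod_pow]

omit [Fintype F] in
theorem pureT_smul' {m t : ℕ} (k : Fin t → F) (f : Fin t → Matrix (Fin m) (Fin m) F) :
    pureT (fun i => k i • f i) = (∏ i, k i) • pureT f := by
  ext x y
  simp only [pureT_apply, Matrix.smul_apply, smul_eq_mul, Finset.prod_mul_distrib]

omit [Fintype F] in
theorem pureT_update {m t : ℕ} (f : Fin t → Matrix (Fin m) (Fin m) F) (x y : Fin t → Fin m)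
    (i : Fin t) (a b : Fin m) :
    pureT f (Function.update x i a) (Function.update y i b) =
      f i a b * ∏ j ∈ Finset.univ.erase i, f j (x j) (y j) := by
  rw [pureT_apply, ← Finset.mul_prod_erase Finset.univ _ (Finset.mem_univ i)]
  simp only [Function.update_self]
  congr 1
  apply Finset.prod_congr rfl
  intro j hj
  have hji : j ≠ i := (Finset.mem_erase.1 hj).1
  rw [Function.update_of_ne hji, Function.update_of_ne hji]

omit [Fintype F] in
theorem pureT_proportional {m t : ℕ} (A B : Fin t → Matrix (Fin m) (Fin m) F) (c : F)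
    (h : pureT A = c • pureT B) (hne : pureT A ≠ 0) (i : Fin t) : ∃ l : F, A i = l • B i := by
  obtain ⟨x0, y0, h0⟩ : ∃ x0 y0, pureT A x0 y0 ≠ 0 := by
    by_contra hcon
    push Not at hcon
    exact hne (by ext x y; exact hcon x y)
  have h1 := pureT_update A x0 y0 i (x0 i) (y0 i)
  rw [Function.update_eq_self, Function.update_eq_self] at h1
  have hd : ∏ j ∈ Finset.univ.erase i, A j (x0 j) (y0 j) ≠ 0 := by
    intro hz
    rw [hz, mul_zero] at h1
    exact h0 h1
  refine ⟨c * (∏ j ∈ Finset.univ.erase i, B j (x0 j) (y0 j)) /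
    (∏ j ∈ Finset.univ.erase i, A j (x0 j) (y0 j)), ?_⟩
  ext a b
  have h2 := congrFun (congrFun h (Function.update x0 i a)) (Function.update y0 i b)
  rw [Matrix.smul_apply, pureT_update, pureT_update, smul_eq_mul] at h2
  rw [Matrix.smul_apply, smul_eq_mul]
  field_simp
  rw [h2]; ring

/-- a multiple of a matrix proportional to its adjoint is hermitian -/
theorem exists_smul_herm (hF : Fintype.card F = q ^ 2) {ι : Type} (G : Matrix ι ι F) (l : F)
    (hl : adj q G = l • G) : ∃ k : F, k ≠ 0 ∧ adj q (k • G) = k • G := by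
  obtain ⟨c, hc⟩ : ∃ c : F, c + c ^ q * l ≠ 0 := by
    by_contra hcon
    push Not at hcon
    have h1 : l = -1 := by
      have := hcon 1
      rw [one_pow, one_mul] at this
      exact (neg_eq_of_add_eq_zero_right this).symm ▸ rfl
    apply frobQ_ne_id hF
    ext x
    have := hcon x
    rw [h1] at this
    simp only [frobQ_apply, RingHom.id_apply]
    linear_combination -this
  refine ⟨c + c ^ q * l, hc, ?_⟩
  have h2 : (c + c ^ q * l) • G = c • G + adj q (c • G) := by
    rw [adj_smul, hl, smul_smul, add_smul]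
  rw [h2, adj_add hF, adj_adj hF, add_comm]

/-- orthonormal bases, matrix form -/
theorem exists_adj_mul_mul_eq_one (hF : Fintype.card F = q ^ 2) {m : ℕ}
    (H H' : Matrix (Fin m) (Fin m) F) (hH : adj q H = H) (hHH' : H * H' = 1) :
    ∃ C : GL (Fin m) F, adj q (C : Matrix (Fin m) (Fin m) F) * H * (C : Matrix (Fin m) (Fin m) F)
      = 1 := by
  have hH'H : H' * H = 1 := mul_eq_one_comm.1 hHH'
  have hU := isUnitaryFormPow_hermForm (n := m) hF
  have hf : IsUnitaryFormPow q (fun x y : Fin m → F => hermForm m F q x (H *ᵥ y)) :=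
    { add_left := fun x y v => hU.add_left x y _
      smul_left := fun c x v => hU.smul_left c x _
      herm := fun v w => by
        show hermForm m F q v (H *ᵥ w) = (hermForm m F q w (H *ᵥ v)) ^ q
        rw [hU.herm v, hermForm_mulVec_left hF, hH]
      nondegenerate := fun v hv => by
        constructor
        · have hne : H *ᵥ v ≠ 0 := by
            intro h0
            apply hv
            have := congrArg (fun w => H' *ᵥ w) h0
            simpa [Matrix.mulVec_mulVec, hH'H] using this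
          exact (hU.nondegenerate _ hne).1
        · obtain ⟨x, hx⟩ := (hU.nondegenerate _ hv).2
          refine ⟨H' *ᵥ x, ?_⟩
          show hermForm m F q v (H *ᵥ (H' *ᵥ x)) ≠ 0
          rw [Matrix.mulVec_mulVec, hHH', Matrix.one_mulVec]
          exact hx }
  obtain ⟨C, hC⟩ := exists_orthonormal hF _ hf
  refine ⟨C, ?_⟩
  have h1 : ∀ y : Fin m → F, (adj q (C : Matrix (Fin m) (Fin m) F) * H *
      (C : Matrix (Fin m) (Fin m) F)) *ᵥ y = y := by
    intro y
    by_contra hne
    have hne' : (adj q (C : Matrix (Fin m) (Fin m) F) * H *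
      (C : Matrix (Fin m) (Fin m) F)) *ᵥ y - y ≠ 0 := sub_ne_zero.2 hne
    obtain ⟨x, hx⟩ := (hU.nondegenerate _ hne').1
    apply hx
    have h2 := hC x y
    rw [hermForm_mulVec_left hF, Matrix.mulVec_mulVec, Matrix.mulVec_mulVec] at h2
    have h4 : (adj q (C : Matrix (Fin m) (Fin m) F) * H *
      (C : Matrix (Fin m) (Fin m) F)) *ᵥ y - y = (adj q (C : Matrix (Fin m) (Fin m) F) * H *
      (C : Matrix (Fin m) (Fin m) F)) *ᵥ y + (-1 : F) • y := by
      rw [neg_one_smul, sub_eq_add_neg]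
    rw [h4, hermForm_add_right hF, hermForm_smul_right, h2, neg_pow_q hF, one_pow]
    ring
  ext i j
  have h3 := congrFun (h1 (Pi.single j 1)) i
  rw [Matrix.mulVec_single_one] at h3
  rw [Matrix.col_apply] at h3
  rw [Matrix.one_apply, h3, Pi.single_apply]

omit [Fintype F] in
theorem tensorWreathSubgroup_mul {ι : Type} [Fintype ι] [DecidableEq ι] {m t : ℕ}
    (e : ι ≃ (Fin t → Fin m)) (P : GL ι F)
    (w : GL (Fin t → Fin m) F) (hw : w ∈ tensorWreathStandard m t F) :
    tensorWreathSubgroup m t e (P * glReindex e.symm w) = tensorWreathSubgroup m t e P := by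
  unfold tensorWreathSubgroup
  ext g
  simp only [Subgroup.mem_map, MulEquiv.coe_toMonoidHom, exists_exists_and_eq_and,
    MulAut.conj_apply]
  constructor
  · rintro ⟨s, hs, rfl⟩
    refine ⟨w * s * w⁻¹, mul_mem (mul_mem hw hs) (inv_mem hw), ?_⟩
    simp only [map_mul, map_inv, _root_.mul_inv_rev, mul_assoc]
  · rintro ⟨s, hs, rfl⟩
    refine ⟨w⁻¹ * s * w, mul_mem (mul_mem (inv_mem hw) hs) hw, ?_⟩
    simp only [map_mul, map_inv, _root_.mul_inv_rev, mul_assoc, mul_inv_cancel_left]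

omit [Fintype F] in
theorem gramMatrix_hermForm (hq : q ≠ 0) {m : ℕ} : gramMatrix (hermForm m F q) = 1 := by
  ext a b
  simp only [gramMatrix]
  rw [hermForm_single_left, Matrix.one_apply, Pi.single_apply]
  by_cases h : a = b
  · rw [if_pos h, one_pow]
  · rw [if_neg h, zero_pow hq]

/-- U7t : tensor powers -/
theorem tensor_power_form (hF : Fintype.card F = q ^ 2) {m t : ℕ} (ht : 0 < t) (hm : 0 < m)
    (e : Fin n ≃ (Fin t → Fin m)) (P : GL (Fin n) F)
    (hstar : ∀ (i : Fin t) (X : Matrix (Fin m) (Fin m) F), ∃ Y : Matrix (Fin m) (Fin m) F,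
      adj q (embT e P i X) = embT e P i Y) :
    ∃ P' : GL (Fin n) F, tensorWreathSubgroup m t e P' = tensorWreathSubgroup m t e P ∧
      IsTensorPowerFormStructure (fun x : F => x ^ q) (hermForm n F q) (hermForm m F q) e P' := by
  classical
  have hq := two_le_of_card_sq hF
  obtain ⟨ρ, hρ⟩ : ∃ ρ, ρ = Matrix.reindexAlgEquiv F F e := ⟨_, rfl⟩
  have hρadj : ∀ M : Matrix (Fin n) (Fin n) F, ρ (adj q M) = adj q (ρ M) := by
    intro M; rw [hρ]; rfl
  have e3 : ∀ S : Matrix (Fin t → Fin m) (Fin t → Fin m) F,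
      Matrix.reindex e.symm e.symm S = ρ.symm S := fun S => by rw [hρ]; rfl
  obtain ⟨Pt, hPt⟩ : ∃ Pt, Pt = ρ (P : Matrix (Fin n) (Fin n) F) := ⟨_, rfl⟩
  obtain ⟨Pt', hPt'⟩ : ∃ Pt', Pt' = ρ ((P⁻¹ : GL (Fin n) F) : Matrix (Fin n) (Fin n) F) :=
    ⟨_, rfl⟩
  have hPP' : Pt * Pt' = 1 := by
    rw [hPt, hPt', ← map_mul, ← Units.val_mul, mul_inv_cancel, Units.val_one, map_one]
  have hP'P : Pt' * Pt = 1 := mul_eq_one_comm.1 hPP'
  have haPP' : adj q Pt * adj q Pt' = 1 := by rw [← adj_mul hF, hP'P, adj_one hF]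
  have haP'P : adj q Pt' * adj q Pt = 1 := by rw [← adj_mul hF, hPP', adj_one hF]
  obtain ⟨J, hJ⟩ : ∃ J, J = adj q Pt * Pt := ⟨_, rfl⟩
  have hJherm : adj q J = J := by rw [hJ, adj_mul hF, adj_adj hF]
  have hJinv : J * (Pt' * adj q Pt') = 1 := by
    rw [hJ, mul_assoc, ← mul_assoc Pt, hPP', one_mul, haPP']
  have hJdet : IsUnit J.det := Matrix.isUnit_det_of_right_inverse hJinv
  have hadj : ∀ i (X : Matrix (Fin m) (Fin m) F), ∃ Y : Matrix (Fin m) (Fin m) F,
      (stdT i X)ᵀ * J = J * stdT i Y := by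
    intro i X
    obtain ⟨Y, hY⟩ := hstar i (adj q Xᵀ)
    refine ⟨Y, ?_⟩
    have h1 := congrArg ρ hY
    unfold embT at h1
    rw [hρadj, e3, e3, map_mul, map_mul, map_mul, map_mul, ρ.apply_symm_apply,
      ρ.apply_symm_apply, ← hPt, ← hPt', adj_mul hF, adj_mul hF, adj_stdT hF, adj_adj hF] at h1
    rw [Cfsg.Agent.Lib.Helper63.Sp.stdT_transpose, hJ]
    calc stdT i Xᵀ * (adj q Pt * Pt)
        = adj q Pt * (adj q Pt' * (stdT i Xᵀ * adj q Pt)) * Pt := by
          rw [← mul_assoc (adj q Pt), haPP', one_mul, mul_assoc]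
      _ = adj q Pt * (Pt * stdT i Y * Pt') * Pt := by rw [h1]
      _ = adj q Pt * Pt * stdT i Y := by
          simp only [mul_assoc]; rw [hP'P, mul_one]
  obtain ⟨c, Gs, hc, hG⟩ := Cfsg.Agent.Lib.Helper63.Sp.gram_tensor_power J hJdet hadj
  have hJG : J = c • pureT (fun i => (Gs i : Matrix (Fin m) (Fin m) F)) := by
    ext a b
    rw [hG, Matrix.smul_apply, pureT_apply, smul_eq_mul]
  have : Nonempty (Fin t → Fin m) := ⟨fun _ => ⟨0, hm⟩⟩
  have hpne : pureT (fun i => (Gs i : Matrix (Fin m) (Fin m) F)) ≠ 0 := by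
    intro h0
    rw [hJG, h0, smul_zero, zero_mul] at hJinv
    exact zero_ne_one hJinv
  have hcq : c ^ q ≠ 0 := pow_ne_zero _ hc
  have hprop : pureT (fun i => adj q (Gs i : Matrix (Fin m) (Fin m) F)) =
      ((c ^ q)⁻¹ * c) • pureT (fun i => (Gs i : Matrix (Fin m) (Fin m) F)) := by
    have h1 := hJherm
    rw [hJG, adj_smul, adj_pureT] at h1
    rw [← smul_smul, ← h1, smul_smul, inv_mul_cancel₀ hcq, one_smul]
  have hpne' : pureT (fun i => adj q (Gs i : Matrix (Fin m) (Fin m) F)) ≠ 0 := by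
    rw [hprop]
    exact smul_ne_zero (mul_ne_zero (inv_ne_zero hcq) hc) hpne
  have hk : ∀ i, ∃ k : F, k ≠ 0 ∧ adj q (k • (Gs i : Matrix (Fin m) (Fin m) F)) =
      k • (Gs i : Matrix (Fin m) (Fin m) F) := by
    intro i
    obtain ⟨l, hl⟩ := pureT_proportional (fun i => adj q (Gs i : Matrix (Fin m) (Fin m) F))
      (fun i => (Gs i : Matrix (Fin m) (Fin m) F)) _ hprop hpne' i
    exact exists_smul_herm hF _ l hl
  choose k hk0 hk using hk
  have hC : ∀ i, ∃ C : GL (Fin m) F, adj q (C : Matrix (Fin m) (Fin m) F) *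
      (k i • (Gs i : Matrix (Fin m) (Fin m) F)) * (C : Matrix (Fin m) (Fin m) F) = 1 := by
    intro i
    refine exists_adj_mul_mul_eq_one hF _
      ((k i)⁻¹ • (((Gs i)⁻¹ : GL (Fin m) F) : Matrix (Fin m) (Fin m) F)) (hk i) ?_
    rw [smul_mul_smul_comm, mul_inv_cancel₀ (hk0 i), one_smul, ← Units.val_mul, mul_inv_cancel,
      Units.val_one]
  choose C hC using hC
  let Cp : GL (Fin t → Fin m) F :=
    ⟨pureT (fun i => (C i : Matrix (Fin m) (Fin m) F)), pureT (fun i => ((C i)⁻¹ : GL (Fin m) F).1),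
      Cfsg.Agent.Lib.Helper63.Sp.pureT_GL_mul_inv C, Cfsg.Agent.Lib.Helper63.Sp.pureT_GL_inv_mul C⟩
  have hCp : Cp ∈ tensorWreathStandard m t F :=
    Subgroup.subset_closure (Or.inl ⟨C, fun x y => rfl⟩)
  refine ⟨P * glReindex e.symm Cp, tensorWreathSubgroup_mul e P Cp hCp, ?_⟩
  obtain ⟨d, hd⟩ : ∃ d, d = c * ∏ i, (k i)⁻¹ := ⟨_, rfl⟩
  have hd0 : d ≠ 0 := by
    rw [hd]
    exact mul_ne_zero hc (Finset.prod_ne_zero_iff.2 fun i _ => inv_ne_zero (hk0 i))
  have hkey : adj q (pureT (fun i => (C i : Matrix (Fin m) (Fin m) F))) * J *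
      pureT (fun i => (C i : Matrix (Fin m) (Fin m) F)) = d • 1 := by
    rw [hJG, adj_pureT, mul_smul_comm, smul_mul_assoc, ← pureT_mul, ← pureT_mul]
    have h1 : ((fun i => adj q (C i : Matrix (Fin m) (Fin m) F)) *
        (fun i => (Gs i : Matrix (Fin m) (Fin m) F)) *
        (fun i => (C i : Matrix (Fin m) (Fin m) F))) =
        fun i => (k i)⁻¹ • (1 : Fin t → Matrix (Fin m) (Fin m) F) i := by
      funext i
      simp only [Pi.mul_apply, Pi.one_apply]
      have h2 := hC i
      rw [mul_smul_comm, smul_mul_assoc] at h2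
      rw [← h2, smul_smul, inv_mul_cancel₀ (hk0 i), one_smul]
    rw [h1, pureT_smul', pureT_one, smul_smul, hd]
  have hρQ : ρ ((glReindex e.symm Cp : GL (Fin n) F) : Matrix (Fin n) (Fin n) F) =
      pureT (fun i => (C i : Matrix (Fin m) (Fin m) F)) := by
    have : ((glReindex e.symm Cp : GL (Fin n) F) : Matrix (Fin n) (Fin n) F) =
        ρ.symm (pureT (fun i => (C i : Matrix (Fin m) (Fin m) F))) := by
      rw [hρ]; rfl
    rw [this, ρ.apply_symm_apply]
  have hP' : adj q ((P * glReindex e.symm Cp : GL (Fin n) F) : Matrix (Fin n) (Fin n) F) *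
      ((P * glReindex e.symm Cp : GL (Fin n) F) : Matrix (Fin n) (Fin n) F) = d • 1 := by
    apply ρ.injective
    rw [map_mul, hρadj, Units.val_mul, map_mul, ← hPt, hρQ, adj_mul hF, map_smul, map_one, ← hkey,
      hJ]
    simp only [mul_assoc]
  refine ⟨d ^ q, pow_ne_zero _ hd0, fun x y => ?_⟩
  rw [hermForm_mulVec_left hF, Matrix.mulVec_mulVec, hP', Matrix.smul_mulVec, Matrix.one_mulVec,
    hermForm_smul_right, gramMatrix_hermForm (by omega)]
  congr 1
  have h1 : ∀ a b : Fin t → Fin m, ∏ i, (1 : Matrix (Fin m) (Fin m) F) (a i) (b i) =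
      (1 : Matrix (Fin t → Fin m) (Fin t → Fin m) F) a b := fun a b => by
    rw [← pureT_one]; rfl
  simp only [h1]
  simp only [Matrix.one_apply, mul_ite, ite_mul, mul_one, mul_zero, zero_mul,
    Finset.sum_ite_eq, Finset.mem_univ, if_true]
  simp only [hermForm, Function.comp]
  exact Equiv.sum_comp e (fun a => x a * (y a) ^ q)

end Cfsg.Agent.Lib.Helper70.AschU
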